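/-
Characterisation of the rank-24 lattice, coordinate part: a lattice of integer vectors containing
the vectors (8,0,..) and (4,4,0,..), with inner products divisible by 8, even scaled norms, no
vectors of squared length 16: its binary code.
-/
import Mathlib

set_option autoImplicit false

namespace Cfsg.Agent.Lib.LeechChar.Code

open Finset

/-- The hypotheses on the lattice in frame coordinates. -/
structure LatData (Λ : AddSubgroup (Fin 24 → ℤ)) : Prop where
  dot8 : ∀ a ∈ Λ, ∀ b ∈ Λ, (8 : ℤ) ∣ ∑ i, a i * b i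
  norm16 : ∀ a ∈ Λ, (16 : ℤ) ∣ ∑ i, a i ^ 2
  noroot : ∀ a ∈ Λ, ∑ i, a i ^ 2 ≠ 16
  e8 : ∀ i, (Pi.single i 8 : Fin 24 → ℤ) ∈ Λ
  e44 : ∀ i j, i ≠ j → ((Pi.single i 4 : Fin 24 → ℤ) + Pi.single j 4) ∈ Λ

/-- All coordinates even. -/
def EV (a : Fin 24 → ℤ) : Prop := ∀ i, (2 : ℤ) ∣ a i

/-- All coordinates odd. -/
def OD (a : Fin 24 → ℤ) : Prop := ∀ i, a i % 2 = 1

/-- The second binary digits. -/
def dig (a : Fin 24 → ℤ) : Fin 24 → ZMod 2 := fun i => ((a i / 2 : ℤ) : ZMod 2)

variable {Λ : AddSubgroup (Fin 24 → ℤ)}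

theorem dot_single (a : Fin 24 → ℤ) (i : Fin 24) (c : ℤ) :
    ∑ k, a k * (Pi.single i c : Fin 24 → ℤ) k = a i * c := by
  simp [Pi.single_apply]

theorem parity (h : LatData Λ) {a : Fin 24 → ℤ} (ha : a ∈ Λ) (i j : Fin 24) :
    (2 : ℤ) ∣ a i + a j := by
  by_cases hij : i = j
  · subst hij; exact ⟨a i, by ring⟩
  · have h1 := h.dot8 a ha _ (h.e44 i j hij)
    have h2 : ∑ k, a k * (((Pi.single i 4 : Fin 24 → ℤ) + Pi.single j 4 : Fin 24 → ℤ) k) =
        a i * 4 + a j * 4 := by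
      simp only [Pi.add_apply, mul_add, Finset.sum_add_distrib, dot_single]
    rw [h2] at h1
    omega

theorem even_or_odd (h : LatData Λ) {a : Fin 24 → ℤ} (ha : a ∈ Λ) : EV a ∨ OD a := by
  rcases Int.emod_two_eq_zero_or_one (a 0) with h0 | h0
  · left
    intro i
    have := parity h ha i 0
    omega
  · right
    intro i
    have := parity h ha i 0
    omega

/-- Vectors `4 z` with `z` of even coordinate sum are in the lattice. -/
theorem four_mem (h : LatData Λ) (z : Fin 24 → ℤ) (hz : (2 : ℤ) ∣ ∑ i, z i) :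
    (fun i => 4 * z i) ∈ Λ := by
  classical
  obtain ⟨w, hw⟩ : (2 : ℤ) ∣ z 0 - ∑ i ∈ univ.erase (0 : Fin 24), z i := by
    have h1 : ∑ i, z i = z 0 + ∑ i ∈ univ.erase (0 : Fin 24), z i :=
      (Finset.add_sum_erase _ _ (mem_univ _)).symm
    rw [h1] at hz
    omega
  have hmem : (∑ i ∈ univ.erase (0 : Fin 24),
      z i • ((Pi.single i 4 : Fin 24 → ℤ) + Pi.single 0 4)) + w • (Pi.single 0 8 : Fin 24 → ℤ)
      ∈ Λ := by
    apply Λ.add_mem
    · apply Λ.sum_mem
      intro i hi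
      exact Λ.zsmul_mem (h.e44 i 0 (Finset.ne_of_mem_erase hi)) _
    · exact Λ.zsmul_mem (h.e8 0) _
  convert hmem using 1
  funext j
  simp only [Pi.add_apply, Finset.sum_apply, Pi.smul_apply, smul_eq_mul, mul_add,
    Finset.sum_add_distrib]
  by_cases hj : j = 0
  · subst hj
    have h2 : ∀ i ∈ univ.erase (0 : Fin 24), z i * (Pi.single i 4 : Fin 24 → ℤ) 0 = 0 := by
      intro i hi
      rw [Pi.single_eq_of_ne (Ne.symm (Finset.ne_of_mem_erase hi)), mul_zero]
    rw [Finset.sum_eq_zero h2]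
    simp only [Pi.single_eq_same, zero_add, ← Finset.sum_mul]
    linarith
  · have h2 : ∀ i ∈ univ.erase (0 : Fin 24), z i * (Pi.single (0 : Fin 24) 4 : Fin 24 → ℤ) j = 0 := by
      intro i _
      rw [Pi.single_eq_of_ne hj, mul_zero]
    rw [Finset.sum_eq_zero h2, Pi.single_eq_of_ne hj, mul_zero, add_zero, add_zero]
    rw [Finset.sum_eq_single j]
    · rw [Pi.single_eq_same]; ring
    · intro b _ hb
      rw [Pi.single_eq_of_ne (Ne.symm hb), mul_zero]
    · intro hn
      exact absurd (Finset.mem_erase.mpr ⟨hj, mem_univ _⟩) hn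

theorem mem_of_sub_four (h : LatData Λ) {a b z : Fin 24 → ℤ} (ha : a ∈ Λ)
    (hab : ∀ i, a i - b i = 4 * z i) (hz : (2 : ℤ) ∣ ∑ i, z i) : b ∈ Λ := by
  have h1 := Λ.sub_mem ha (four_mem h z hz)
  convert h1 using 1
  funext i
  have := hab i
  simp only [Pi.sub_apply]
  linarith

/-- No vector `± 4 e_i`. -/
theorem no_four_single (h : LatData Λ) {a : Fin 24 → ℤ} (ha : a ∈ Λ) (i : Fin 24) (c : ℤ)
    (hc : c ^ 2 = 16) (hai : ∀ j, j ≠ i → a j = 0) (hi : a i = c) : False := by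
  apply h.noroot a ha
  rw [Finset.sum_eq_single i]
  · rw [hi, hc]
  · intro b _ hb
    rw [hai b hb]; ring
  · intro hn; exact absurd (mem_univ _) hn

theorem EV.add {a b : Fin 24 → ℤ} (ha : EV a) (hb : EV b) : EV (a + b) := fun i =>
  dvd_add (ha i) (hb i)

theorem EV.neg {a : Fin 24 → ℤ} (ha : EV a) : EV (-a) := fun i => (dvd_neg).mpr (ha i)

theorem EV.sub {a b : Fin 24 → ℤ} (ha : EV a) (hb : EV b) : EV (a - b) := fun i =>
  dvd_sub (ha i) (hb i)

theorem div_two_add {x y : ℤ} (hx : (2 : ℤ) ∣ x) (hy : (2 : ℤ) ∣ y) :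
    (x + y) / 2 = x / 2 + y / 2 := by omega

theorem dig_add {a b : Fin 24 → ℤ} (ha : EV a) (hb : EV b) : dig (a + b) = dig a + dig b := by
  funext i
  simp only [dig, Pi.add_apply]
  rw [div_two_add (ha i) (hb i)]
  push_cast
  rfl

/-- The binary code of a lattice. -/
def code (Λ : AddSubgroup (Fin 24 → ℤ)) : Submodule (ZMod 2) (Fin 24 → ZMod 2) where
  carrier := {u | ∃ a ∈ Λ, EV a ∧ dig a = u}
  add_mem' := by
    rintro _ _ ⟨a, ha, hea, rfl⟩ ⟨b, hb, heb, rfl⟩
    exact ⟨a + b, Λ.add_mem ha hb, hea.add heb, dig_add hea heb⟩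
  zero_mem' := ⟨0, Λ.zero_mem, fun _ => dvd_zero _, by funext i; simp [dig]⟩
  smul_mem' := by
    rintro c _ ⟨a, ha, hea, rfl⟩
    have hc : c = 0 ∨ c = 1 := by
      revert c; decide
    rcases hc with rfl | rfl
    · exact ⟨0, Λ.zero_mem, fun _ => dvd_zero _, by funext i; simp [dig]⟩
    · exact ⟨a, ha, hea, by simp⟩

theorem mem_code {u : Fin 24 → ZMod 2} : u ∈ code Λ ↔ ∃ a ∈ Λ, EV a ∧ dig a = u := Iff.rfl

theorem sum_sq_even {a : Fin 24 → ℤ} (ha : EV a) : ∑ i, a i ^ 2 = 4 * ∑ i, (a i / 2) ^ 2 := by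
  rw [Finset.mul_sum]
  refine Finset.sum_congr rfl fun i _ => ?_
  obtain ⟨c, hc⟩ := ha i
  rw [hc, show 2 * c / 2 = c by omega]
  ring

theorem sum_mul_even {a b : Fin 24 → ℤ} (ha : EV a) (hb : EV b) :
    ∑ i, a i * b i = 4 * ∑ i, (a i / 2) * (b i / 2) := by
  rw [Finset.mul_sum]
  refine Finset.sum_congr rfl fun i _ => ?_
  obtain ⟨c, hc⟩ := ha i
  obtain ⟨d, hd⟩ := hb i
  rw [hc, hd, show 2 * c / 2 = c by omega, show 2 * d / 2 = d by omega]
  ring

theorem code_orth (h : LatData Λ) {u w : Fin 24 → ZMod 2} (hu : u ∈ code Λ) (hw : w ∈ code Λ) :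
    ∑ i, u i * w i = 0 := by
  obtain ⟨a, ha, hea, rfl⟩ := hu
  obtain ⟨b, hb, heb, rfl⟩ := hw
  have h1 := h.dot8 a ha b hb
  rw [sum_mul_even hea heb] at h1
  have h2 : (2 : ℤ) ∣ ∑ i, (a i / 2) * (b i / 2) := by omega
  have h3 := (ZMod.intCast_zmod_eq_zero_iff_dvd (∑ i, (a i / 2) * (b i / 2)) 2).mpr (by exact_mod_cast h2)
  simp only [dig]
  rw [← h3]
  push_cast
  rfl

theorem sq_sub_ind (d : ℤ) :
    (4 : ℤ) ∣ d ^ 2 - (if ((d : ℤ) : ZMod 2) ≠ 0 then 1 else 0) := by
  rcases Int.even_or_odd' d with ⟨q, rfl | rfl⟩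
  · have : ((2 * q : ℤ) : ZMod 2) = 0 := by
      push_cast; rw [show (2 : ZMod 2) = 0 from rfl, zero_mul]
    rw [this]
    simp only [ne_eq, not_true_eq_false, if_false, sub_zero]
    exact ⟨q ^ 2, by ring⟩
  · have : ((2 * q + 1 : ℤ) : ZMod 2) = 1 := by
      push_cast; rw [show (2 : ZMod 2) = 0 from rfl, zero_mul, zero_add]
    rw [this]
    simp only [ne_eq, one_ne_zero, not_false_eq_true, if_true]
    exact ⟨q ^ 2 + q, by ring⟩

/-- Weight of the digit word versus sum of squares of the halves. -/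
theorem wt_cast (a : Fin 24 → ℤ) :
    ((hammingNorm (dig a) : ℕ) : ℤ) = ∑ i, (if ((a i / 2 : ℤ) : ZMod 2) ≠ 0 then (1 : ℤ) else 0) := by
  classical
  unfold hammingNorm
  rw [Finset.card_filter]
  push_cast
  rfl

theorem four_dvd_sum_sub (a : Fin 24 → ℤ) :
    (4 : ℤ) ∣ ∑ i, (a i / 2) ^ 2 - (hammingNorm (dig a) : ℕ) := by
  rw [wt_cast, ← Finset.sum_sub_distrib]
  exact Finset.dvd_sum fun i _ => sq_sub_ind _

theorem code_wt (h : LatData Λ) {u : Fin 24 → ZMod 2} (hu : u ∈ code Λ) : 4 ∣ hammingNorm u := by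
  obtain ⟨a, ha, hea, rfl⟩ := hu
  have h1 := h.norm16 a ha
  rw [sum_sq_even hea] at h1
  have h2 := four_dvd_sum_sub a
  have h3 : (4 : ℤ) ∣ ((hammingNorm (dig a) : ℕ) : ℤ) := by omega
  exact_mod_cast h3

/-- The sign of an odd integer modulo 4, zero for even integers. -/
def sgn4 (d : ℤ) : ℤ := if d % 4 = 1 then 1 else if d % 4 = 3 then -1 else 0

theorem sgn4_sub (d : ℤ) : ∃ z, d - sgn4 d = 2 * z := by
  unfold sgn4
  split_ifs with h1 h2
  · exact ⟨(d - 1) / 2, by omega⟩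
  · exact ⟨(d + 1) / 2, by omega⟩
  · exact ⟨d / 2, by omega⟩

theorem sgn4_sq (d : ℤ) : sgn4 d ^ 2 = if ((d : ℤ) : ZMod 2) ≠ 0 then 1 else 0 := by
  rcases Int.even_or_odd' d with ⟨q, rfl | rfl⟩
  · have : ((2 * q : ℤ) : ZMod 2) = 0 := by
      push_cast; rw [show (2 : ZMod 2) = 0 from rfl, zero_mul]
    rw [this]
    simp only [ne_eq, not_true_eq_false, if_false]
    unfold sgn4
    rw [if_neg (by omega), if_neg (by omega)]
    norm_num
  · have : ((2 * q + 1 : ℤ) : ZMod 2) = 1 := by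
      push_cast; rw [show (2 : ZMod 2) = 0 from rfl, zero_mul, zero_add]
    rw [this]
    simp only [ne_eq, one_ne_zero, not_false_eq_true, if_true]
    unfold sgn4
    split_ifs with h1 h2
    · norm_num
    · norm_num
    · exfalso; omega

/-- No word of weight 4. -/
theorem code_no4 (h : LatData Λ) {u : Fin 24 → ZMod 2} (hu : u ∈ code Λ) : hammingNorm u ≠ 4 := by
  classical
  intro hwt
  obtain ⟨a, ha, hea, rfl⟩ := hu
  -- the reduced vector
  set s : Fin 24 → ℤ := fun i => sgn4 (a i / 2) with hs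
  have hsq : ∑ i, (2 * s i) ^ 2 = 16 := by
    have h1 : ∑ i, (2 * s i) ^ 2 = 4 * ((hammingNorm (dig a) : ℕ) : ℤ) := by
      rw [wt_cast, Finset.mul_sum]
      refine Finset.sum_congr rfl fun i _ => ?_
      rw [mul_pow, hs, sgn4_sq]
      ring
    rw [h1, hwt]; norm_num
  have hz : ∀ i, ∃ z, a i - 2 * s i = 4 * z := by
    intro i
    obtain ⟨z, hz⟩ := sgn4_sub (a i / 2)
    refine ⟨z, ?_⟩
    obtain ⟨c, hc⟩ := hea i
    have h2 : a i / 2 = c := by omega
    simp only [hs]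
    rw [h2] at hz ⊢
    omega
  choose z hzz using hz
  by_cases hpar : (2 : ℤ) ∣ ∑ i, z i
  · exact h.noroot _ (mem_of_sub_four h ha (b := fun i => 2 * s i) (z := z) hzz hpar) hsq
  · -- flip one coordinate in the support
    obtain ⟨i₀, hi₀⟩ : ∃ i, s i ^ 2 = 1 := by
      by_contra hne
      push Not at hne
      have h3 : ∀ i, s i = 0 := by
        intro i
        have := sgn4_sq (a i / 2)
        have h4 : s i ^ 2 = 1 ∨ s i ^ 2 = 0 := by
          simp only [hs]
          rw [this]; split_ifs <;> simp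
        rcases h4 with h4 | h4
        · exact absurd h4 (hne i)
        · exact pow_eq_zero_iff (two_ne_zero) |>.mp h4
      simp [h3] at hsq
    set r : Fin 24 → ℤ := fun i => if i = i₀ then - (2 * s i) else 2 * s i with hr
    have hr2 : ∀ i, r i ^ 2 = (2 * s i) ^ 2 := by
      intro i
      simp only [hr]
      split_ifs <;> ring
    have hmem : r ∈ Λ := by
      refine mem_of_sub_four h ha (z := fun i => if i = i₀ then z i + s i else z i) ?_ ?_
      · intro i
        simp only [hr]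
        have := hzz i
        split_ifs with hi
        · subst hi; linarith
        · linarith
      · have h5 : ∑ i, (if i = i₀ then z i + s i else z i) = ∑ i, z i + s i₀ := by
          have : ∀ i, (if i = i₀ then z i + s i else z i) = z i + (if i = i₀ then s i else 0) := by
            intro i; split_ifs <;> simp
          simp only [this, Finset.sum_add_distrib, Finset.sum_ite_eq', mem_univ, if_true]
        rw [h5]
        have h6 : s i₀ % 2 = 1 := by
          have h7 : s i₀ = 1 ∨ s i₀ = -1 := by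
            have : (s i₀ - 1) * (s i₀ + 1) = 0 := by linear_combination hi₀
            rcases mul_eq_zero.mp this with h8 | h8
            · left; linarith
            · right; linarith
          rcases h7 with h7 | h7 <;> rw [h7] <;> norm_num
        omega
    apply h.noroot r hmem
    rw [← hsq]
    exact Finset.sum_congr rfl fun i _ => hr2 i

end Cfsg.Agent.Lib.LeechChar.Code
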