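/-
Characterisation of the rank-24 lattice: the count of vectors of squared length 32 forces
the binary code to have dimension 12 and the lattice to contain odd vectors.
-/
import Cfsg.Agent.Lib.LeechChar.Code

set_option autoImplicit false

namespace Cfsg.Agent.Lib.LeechChar.Count

open Finset Cfsg.Agent.Lib.LeechChar.Code

variable {Λ : AddSubgroup (Fin 24 → ℤ)}

/-- Support of a binary word. -/
def supp (u : Fin 24 → ZMod 2) : Finset (Fin 24) := univ.filter fun i => u i ≠ 0

theorem card_supp (u : Fin 24 → ZMod 2) : (supp u).card = hammingNorm u := rfl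

theorem zmod2_eq_one {b : ZMod 2} (h : b ≠ 0) : b = 1 := by
  revert b; decide

/-- Two words of weight 8 of the code meeting in at least 5 points coincide. -/
theorem oct_eq (h : LatData Λ) {u u' : Fin 24 → ZMod 2} (hu : u ∈ code Λ) (hu' : u' ∈ code Λ)
    (h8 : hammingNorm u = 8) (h8' : hammingNorm u' = 8) {T : Finset (Fin 24)}
    (hT : T ⊆ supp u) (hT' : T ⊆ supp u') (hc : T.card = 5) : u = u' := by
  classical
  have h1 : supp (u + u') ⊆ (supp u \ T) ∪ (supp u' \ T) := by
    intro i hi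
    simp only [supp, mem_filter, mem_univ, true_and, Pi.add_apply] at hi
    by_cases hiT : i ∈ T
    · exfalso
      have h2 := hT hiT
      have h3 := hT' hiT
      simp only [supp, mem_filter, mem_univ, true_and] at h2 h3
      rw [zmod2_eq_one h2, zmod2_eq_one h3] at hi
      exact hi rfl
    · have : u i ≠ 0 ∨ u' i ≠ 0 := by
        by_contra hne
        push Not at hne
        rw [hne.1, hne.2] at hi
        exact hi rfl
      simp only [mem_union, mem_sdiff, supp, mem_filter, mem_univ, true_and, hiT, not_false_eq_true,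
        and_true]
      exact this
  have h2 : (supp (u + u')).card ≤ 6 := by
    calc (supp (u + u')).card ≤ ((supp u \ T) ∪ (supp u' \ T)).card := card_le_card h1
      _ ≤ (supp u \ T).card + (supp u' \ T).card := card_union_le _ _
      _ = 6 := by
        rw [card_sdiff_of_subset hT, card_sdiff_of_subset hT', hc, card_supp, card_supp, h8, h8']
  have h3 := code_wt h ((code Λ).add_mem hu hu')
  have h4 := code_no4 h ((code Λ).add_mem hu hu')
  rw [card_supp] at h2
  have h5 : hammingNorm (u + u') = 0 := by omega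
  rw [hammingNorm_eq_zero] at h5
  funext i
  have := congrFun h5 i
  simp only [Pi.add_apply, Pi.zero_apply] at this
  generalize u i = a at this ⊢
  generalize u' i = b at this ⊢
  revert a b; decide

theorem oct_bound (h : LatData Λ) (O : Finset (Fin 24 → ZMod 2))
    (hO : ∀ u ∈ O, u ∈ code Λ ∧ hammingNorm u = 8) : O.card ≤ 759 := by
  classical
  have hdisj : ∀ u ∈ O, ∀ u' ∈ O, u ≠ u' →
      Disjoint (powersetCard 5 (supp u)) (powersetCard 5 (supp u')) := by
    intro u hu u' hu' hne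
    rw [Finset.disjoint_left]
    intro T hT hT'
    rw [mem_powersetCard] at hT hT'
    exact hne (oct_eq h (hO u hu).1 (hO u' hu').1 (hO u hu).2 (hO u' hu').2 hT.1 hT'.1 hT.2)
  have h1 : (O.biUnion fun u => powersetCard 5 (supp u)).card = O.card * 56 := by
    rw [card_biUnion hdisj, Finset.sum_const_nat]
    intro u hu
    rw [card_powersetCard, card_supp, (hO u hu).2]
    rfl
  have h2 : (O.biUnion fun u => powersetCard 5 (supp u)) ⊆ powersetCard 5 (univ : Finset (Fin 24)) := by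
    intro T hT
    rw [mem_biUnion] at hT
    obtain ⟨u, _, hT⟩ := hT
    rw [mem_powersetCard] at hT ⊢
    exact ⟨subset_univ _, hT.2⟩
  have h3 := card_le_card h2
  rw [h1, card_powersetCard, card_univ, Fintype.card_fin] at h3
  have h4 : Nat.choose 24 5 = 42504 := by decide +kernel
  rw [h4] at h3
  omega

/-! ### Elementary inequalities on sums -/

theorem add_le_sum (f : Fin 24 → ℤ) (hf : ∀ i, 0 ≤ f i) {i j : Fin 24} (hij : i ≠ j) :
    f i + f j ≤ ∑ k, f k := by
  classical
  have h1 : ∑ k ∈ ({i, j} : Finset (Fin 24)), f k ≤ ∑ k, f k :=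
    Finset.sum_le_sum_of_subset_of_nonneg (subset_univ _) (fun k _ _ => hf k)
  rwa [Finset.sum_pair hij] at h1

theorem add3_le_sum (f : Fin 24 → ℤ) (hf : ∀ i, 0 ≤ f i) {i j k : Fin 24} (hij : i ≠ j)
    (hik : i ≠ k) (hjk : j ≠ k) : f i + f j + f k ≤ ∑ l, f l := by
  classical
  have h1 : ∑ l ∈ ({i, j, k} : Finset (Fin 24)), f l ≤ ∑ l, f l :=
    Finset.sum_le_sum_of_subset_of_nonneg (subset_univ _) (fun l _ _ => hf l)
  rw [Finset.sum_insert (by simp [hij, hik]), Finset.sum_pair hjk] at h1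
  linarith

theorem le_sum (f : Fin 24 → ℤ) (hf : ∀ i, 0 ≤ f i) (i : Fin 24) : f i ≤ ∑ k, f k :=
  Finset.single_le_sum (fun k _ => hf k) (mem_univ i)

theorem sq_eq_one {z : ℤ} (h : z ^ 2 = 1) : z = 1 ∨ z = -1 := by
  have : (z - 1) * (z + 1) = 0 := by linear_combination h
  rcases mul_eq_zero.mp this with h8 | h8
  · left; linarith
  · right; linarith

theorem sq_eq_four {z : ℤ} (h : z ^ 2 = 4) : z = 2 ∨ z = -2 := by
  have : (z - 2) * (z + 2) = 0 := by linear_combination h
  rcases mul_eq_zero.mp this with h8 | h8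
  · left; linarith
  · right; linarith

theorem sq_eq_nine {z : ℤ} (h : z ^ 2 = 9) : z = 3 ∨ z = -3 := by
  have : (z - 3) * (z + 3) = 0 := by linear_combination h
  rcases mul_eq_zero.mp this with h8 | h8
  · left; linarith
  · right; linarith

theorem sq_ne_two (z : ℤ) : z ^ 2 ≠ 2 := by
  intro h
  have h1 : z < 2 := by nlinarith
  have h2 : -2 < z := by nlinarith
  interval_cases z <;> simp at h

/-! ### Vectors of type I: four times a vector of squared length 2 -/

/-- sign from a boolean -/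
def sg (b : Bool) : ℤ := if b then 1 else -1

/-- The vectors `± 4 e_i ± 4 e_j`. -/
def typeI : Finset (Fin 24 → ℤ) :=
  (univ : Finset (Fin 24 × Fin 24 × Bool × Bool)).image fun p =>
    fun k => (if k = p.1 then 4 * sg p.2.2.1 else 0) + (if k = p.2.1 then 4 * sg p.2.2.2 else 0)

theorem card_typeI : typeI.card ≤ 2304 := by
  refine card_image_le.trans ?_
  simp [Finset.card_univ]

theorem exists_sg {z : ℤ} (h : z ^ 2 = 1) : ∃ b, z = sg b := by
  rcases sq_eq_one h with rfl | rfl
  · exact ⟨true, rfl⟩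
  · exact ⟨false, rfl⟩

theorem mem_typeI {z : Fin 24 → ℤ} (hz : ∑ i, z i ^ 2 = 2) : (fun i => 4 * z i) ∈ typeI := by
  classical
  have hnn : ∀ i, 0 ≤ z i ^ 2 := fun i => sq_nonneg _
  obtain ⟨i, hi⟩ : ∃ i, z i ≠ 0 := by
    by_contra hne
    push Not at hne
    simp [hne] at hz
  obtain ⟨j, hji, hj⟩ : ∃ j, j ≠ i ∧ z j ≠ 0 := by
    by_contra hne
    push Not at hne
    have h1 : ∑ k, z k ^ 2 = z i ^ 2 := by
      rw [Finset.sum_eq_single i]
      · intro b _ hb; rw [hne b hb]; ring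
      · intro hn; exact absurd (mem_univ _) hn
    rw [h1] at hz
    exact sq_ne_two _ hz
  have hi2 : 1 ≤ z i ^ 2 := by
    have := sq_pos_of_ne_zero hi; omega
  have hj2 : 1 ≤ z j ^ 2 := by
    have := sq_pos_of_ne_zero hj; omega
  have h12 : z i ^ 2 + z j ^ 2 ≤ ∑ k, z k ^ 2 := add_le_sum (fun k => z k ^ 2) hnn hji.symm
  rw [hz] at h12
  have hz0 : ∀ k, k ≠ i → k ≠ j → z k = 0 := by
    intro k hki hkj
    have h3 : z i ^ 2 + z j ^ 2 + z k ^ 2 ≤ ∑ k, z k ^ 2 :=
      add3_le_sum (fun k => z k ^ 2) hnn hji.symm (Ne.symm hki) (Ne.symm hkj)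
    rw [hz] at h3
    have h4 : z k ^ 2 ≤ 0 := by omega
    have h5 := hnn k
    have h6 : z k ^ 2 = 0 := by omega
    exact pow_eq_zero_iff two_ne_zero |>.mp h6
  obtain ⟨s, hs⟩ := exists_sg (show z i ^ 2 = 1 by omega)
  obtain ⟨t, ht⟩ := exists_sg (show z j ^ 2 = 1 by omega)
  refine mem_image.mpr ⟨(i, j, s, t), mem_univ _, ?_⟩
  funext k
  simp only
  by_cases hki : k = i
  · subst hki
    rw [if_pos rfl, if_neg (Ne.symm hji), hs]; ring
  · by_cases hkj : k = j
    · subst hkj
      rw [if_neg hki, if_pos rfl, ht]; ring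
    · rw [if_neg hki, if_neg hkj, hz0 k hki hkj]; ring

/-- Weight bound. -/
theorem ind_le_sq (d : ℤ) : (if ((d : ℤ) : ZMod 2) ≠ 0 then (1 : ℤ) else 0) ≤ d ^ 2 := by
  split_ifs with h
  · have hd : d ≠ 0 := by
      rintro rfl
      simp at h
    have := sq_pos_of_ne_zero hd
    omega
  · positivity

theorem wt_le (a : Fin 24 → ℤ) : ((hammingNorm (dig a) : ℕ) : ℤ) ≤ ∑ i, (a i / 2) ^ 2 := by
  rw [wt_cast]
  exact Finset.sum_le_sum fun i _ => ind_le_sq _

/-- Even vectors of squared length 32: weight 0 or 8. -/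
theorem shape_even (h : LatData Λ) {a : Fin 24 → ℤ} (ha : a ∈ Λ) (hea : EV a)
    (hs : ∑ i, a i ^ 2 = 32) : hammingNorm (dig a) = 0 ∨ hammingNorm (dig a) = 8 := by
  have hu : dig a ∈ code Λ := ⟨a, ha, hea, rfl⟩
  have h1 := code_wt h hu
  have h2 := code_no4 h hu
  have h3 := wt_le a
  rw [sum_sq_even hea] at hs
  have h4 : ∑ i, (a i / 2) ^ 2 = 8 := by omega
  rw [h4] at h3
  have h5 : hammingNorm (dig a) ≤ 8 := by exact_mod_cast h3
  omega

/-- Weight 0: type I. -/
theorem mem_typeI_of_wt0 {a : Fin 24 → ℤ} (hea : EV a)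
    (hs : ∑ i, a i ^ 2 = 32) (h0 : hammingNorm (dig a) = 0) : a ∈ typeI := by
  rw [hammingNorm_eq_zero] at h0
  have h1 : ∀ i, ∃ z, a i = 4 * z := by
    intro i
    have h2 := congrFun h0 i
    simp only [dig, Pi.zero_apply] at h2
    have h3 := (ZMod.intCast_zmod_eq_zero_iff_dvd (a i / 2) 2).mp h2
    obtain ⟨c, hc⟩ := hea i
    obtain ⟨d, hd⟩ := h3
    refine ⟨d, ?_⟩
    have h4 : a i / 2 = c := by omega
    rw [h4] at hd
    push_cast at hd
    omega
  choose z hz using h1
  have h2 : ∑ i, z i ^ 2 = 2 := by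
    have h3 : ∑ i, a i ^ 2 = 16 * ∑ i, z i ^ 2 := by
      rw [Finset.mul_sum]
      refine Finset.sum_congr rfl fun i _ => ?_
      rw [hz i]; ring
    omega
  have h3 := mem_typeI h2
  convert h3 using 1
  funext i
  exact hz i

/-- Weight 8: shape. -/
theorem shape8 {a : Fin 24 → ℤ} (hea : EV a) (hs : ∑ i, a i ^ 2 = 32)
    (h8 : hammingNorm (dig a) = 8) :
    ∀ i, (dig a i ≠ 0 → a i = 2 ∨ a i = -2) ∧ (dig a i = 0 → a i = 0) := by
  have h1 : ∑ i, (a i / 2) ^ 2 = 8 := by
    rw [sum_sq_even hea] at hs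
    omega
  have h2 : ∑ i, ((a i / 2) ^ 2 - (if ((a i / 2 : ℤ) : ZMod 2) ≠ 0 then (1 : ℤ) else 0)) = 0 := by
    rw [Finset.sum_sub_distrib, ← wt_cast, h8, h1]; norm_num
  have h3 := (Finset.sum_eq_zero_iff_of_nonneg (fun i _ => sub_nonneg.mpr (ind_le_sq (a i / 2)))).mp h2
  intro i
  have h4 := h3 i (mem_univ _)
  obtain ⟨c, hc⟩ := hea i
  have h5 : a i / 2 = c := by omega
  rw [h5] at h4
  simp only [dig, h5]
  constructor
  · intro hne
    rw [if_pos hne] at h4
    rcases sq_eq_one (show c ^ 2 = 1 by linarith) with h6 | h6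
    · left; omega
    · right; omega
  · intro he
    rw [if_neg (by simpa using he)] at h4
    have h6 : c ^ 2 = 0 := by linarith
    have h7 := pow_eq_zero_iff two_ne_zero |>.mp h6
    omega

/-- Fibres of type II vectors over a word have at most 128 members. -/
theorem card_fibre8 (h : LatData Λ) (S : Finset (Fin 24 → ℤ)) (u : Fin 24 → ZMod 2)
    (hu8 : hammingNorm u = 8)
    (hS : ∀ a ∈ S, a ∈ Λ ∧ EV a ∧ ∑ i, a i ^ 2 = 32 ∧ dig a = u) : S.card ≤ 128 := by
  classical
  obtain ⟨i₀, hi₀⟩ : (supp u).Nonempty := by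
    rw [← card_pos, card_supp, hu8]; norm_num
  let φ : (Fin 24 → ℤ) → Finset (Fin 24) := fun a => ((supp u).erase i₀).filter fun i => 0 < a i
  have hmaps : ∀ a ∈ S, φ a ∈ powerset ((supp u).erase i₀) := by
    intro a _
    exact mem_powerset.mpr (filter_subset _ _)
  have hinj : Set.InjOn φ (S : Set (Fin 24 → ℤ)) := by
    intro a ha b hb hab
    obtain ⟨hΛa, hea, hsa, hda⟩ := hS a ha
    obtain ⟨hΛb, heb, hsb, hdb⟩ := hS b hb
    have ha8 : hammingNorm (dig a) = 8 := by rw [hda, hu8]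
    have hb8 : hammingNorm (dig b) = 8 := by rw [hdb, hu8]
    have sa := shape8 hea hsa ha8
    have sb := shape8 heb hsb hb8
    rw [hda] at sa
    rw [hdb] at sb
    have hne : ∀ k, k ≠ i₀ → a k = b k := by
      intro k hk
      by_cases hku : u k = 0
      · rw [(sa k).2 hku, (sb k).2 hku]
      · have hmem : k ∈ (supp u).erase i₀ := by
          simp [supp, hk, hku]
        have h1 : (0 < a k) ↔ (0 < b k) := by
          have h2 : k ∈ φ a ↔ k ∈ φ b := by rw [hab]
          simpa only [φ, mem_filter, hmem, true_and] using h2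
        rcases (sa k).1 hku with h3 | h3 <;> rcases (sb k).1 hku with h4 | h4 <;> rw [h3, h4] <;>
          rw [h3, h4] at h1 <;> simp at h1 ⊢
    by_contra hab'
    have hne0 : a i₀ ≠ b i₀ := by
      intro h0
      apply hab'
      funext k
      by_cases hk : k = i₀
      · rw [hk, h0]
      · exact hne k hk
    have hi₀' : u i₀ ≠ 0 := by simpa [supp] using hi₀
    refine no_four_single h (Λ.sub_mem hΛa hΛb) i₀ (a i₀ - b i₀) ?_ ?_ rfl
    · rcases (sa i₀).1 hi₀' with h3 | h3 <;> rcases (sb i₀).1 hi₀' with h4 | h4 <;> rw [h3, h4] at hne0 ⊢ <;>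
        first | exact absurd rfl hne0 | norm_num
    · intro j hj
      simp only [Pi.sub_apply]
      rw [hne j hj]; ring
  have h1 := card_le_card_of_injOn φ hmaps hinj
  rw [card_powerset, card_erase_of_mem hi₀, card_supp, hu8] at h1
  simpa using h1

/-! ### Odd vectors -/

theorem dig_sub_odd {a b : Fin 24 → ℤ} (ha : OD a) (hb : OD b) :
    dig (a - b) = dig a + dig b := by
  funext i
  simp only [dig, Pi.add_apply, Pi.sub_apply]
  have h1 := ha i
  have h2 := hb i
  have h3 : (a i - b i) / 2 = a i / 2 - b i / 2 := by omega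
  rw [h3]
  push_cast
  rw [sub_eq_add_neg, ZMod.neg_eq_self_mod_two]

theorem OD.sub_ev {a b : Fin 24 → ℤ} (ha : OD a) (hb : OD b) : EV (a - b) := by
  intro i
  have h1 := ha i
  have h2 := hb i
  simp only [Pi.sub_apply]
  omega

/-- sign patterns -/
def vecOdd (w : Fin 24 → ZMod 2) (i : Fin 24) : Fin 24 → ℤ := fun k =>
  if k = i then (if w k = 0 then -3 else 3) else (if w k = 0 then 1 else -1)

theorem cast_eq_zero_iff (c : ℤ) : ((c : ℤ) : ZMod 2) = 0 ↔ c % 2 = 0 := by
  rw [ZMod.intCast_zmod_eq_zero_iff_dvd]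
  push_cast
  omega

theorem val3 (x : ℤ) (h : x ^ 2 = 9) : x = if ((x / 2 : ℤ) : ZMod 2) = 0 then -3 else 3 := by
  rcases sq_eq_nine h with rfl | rfl <;> decide

theorem val1 (x : ℤ) (h : x ^ 2 = 1) : x = if ((x / 2 : ℤ) : ZMod 2) = 0 then 1 else -1 := by
  rcases sq_eq_one h with rfl | rfl <;> decide

/-- Odd vectors of squared length 32. -/
theorem shape_odd {a : Fin 24 → ℤ} (hoa : OD a) (hs : ∑ i, a i ^ 2 = 32) :
    ∃ i, a = vecOdd (dig a) i := by
  classical
  have h8 : ∀ i, ∃ t, 0 ≤ t ∧ a i ^ 2 = 1 + 8 * t := by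
    intro i
    obtain ⟨q, hq⟩ : ∃ q, a i = 2 * q + 1 := ⟨a i / 2, by have := hoa i; omega⟩
    refine ⟨(q ^ 2 + q) / 2, ?_, ?_⟩
    · have h1 : 0 ≤ q ^ 2 + q := by
        rcases le_or_gt 0 q with h | h <;> nlinarith
      omega
    · have h1 : (2 : ℤ) ∣ q ^ 2 + q := by
        rcases Int.even_or_odd' q with ⟨f, rfl | rfl⟩
        · exact ⟨2 * f ^ 2 + f, by ring⟩
        · exact ⟨2 * f ^ 2 + 3 * f + 1, by ring⟩
      obtain ⟨c, hc⟩ := h1
      rw [hc, hq, show 2 * c / 2 = c by omega]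
      linear_combination 4 * hc
  choose t ht0 ht using h8
  have hsum : ∑ i, t i = 1 := by
    have h1 : ∑ i, a i ^ 2 = 24 + 8 * ∑ i, t i := by
      simp only [ht, Finset.sum_add_distrib, Finset.sum_const, card_univ, Fintype.card_fin,
        Finset.mul_sum]
      norm_num
    omega
  obtain ⟨i, hi⟩ : ∃ i, t i ≠ 0 := by
    by_contra hne
    push Not at hne
    simp [hne] at hsum
  have hi1 : t i = 1 := by
    have h1 := le_sum t ht0 i
    have h2 := ht0 i
    omega
  have hj0 : ∀ j, j ≠ i → t j = 0 := by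
    intro j hj
    have h1 := add_le_sum t ht0 hj.symm
    have h2 := ht0 j
    omega
  refine ⟨i, ?_⟩
  funext k
  simp only [vecOdd, dig]
  have hk1 := hoa k
  by_cases hki : k = i
  · subst hki
    rw [if_pos rfl]
    have h2 : a k ^ 2 = 9 := by rw [ht, hi1]; norm_num
    exact val3 _ h2
  · rw [if_neg hki]
    have h2 : a k ^ 2 = 1 := by rw [ht, hj0 k hki]; norm_num
    exact val1 _ h2

/-- Fibres of odd vectors have at most 24 members. -/
theorem card_fibreOdd (S : Finset (Fin 24 → ℤ)) (w : Fin 24 → ZMod 2)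
    (hS : ∀ a ∈ S, OD a ∧ ∑ i, a i ^ 2 = 32 ∧ dig a = w) : S.card ≤ 24 := by
  classical
  have h1 : S ⊆ univ.image (vecOdd w) := by
    intro a ha
    obtain ⟨ho, hs, hd⟩ := hS a ha
    obtain ⟨i, hi⟩ := shape_odd ho hs
    rw [hd] at hi
    exact mem_image.mpr ⟨i, mem_univ _, hi.symm⟩
  calc S.card ≤ (univ.image (vecOdd w)).card := card_le_card h1
    _ ≤ (univ : Finset (Fin 24)).card := card_image_le
    _ = 24 := by simp

theorem finrank_le (h : LatData Λ) : Module.finrank (ZMod 2) (code Λ) ≤ 12 := by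
  classical
  set C := code Λ with hC
  let φ := dotProductEquiv (ZMod 2) (Fin 24)
  let A : Submodule (ZMod 2) (Fin 24 → ZMod 2) := C.dualAnnihilator.comap φ.toLinearMap
  have hdim : Module.finrank (ZMod 2) A = Module.finrank (ZMod 2) C.dualAnnihilator :=
    LinearEquiv.finrank_eq (φ.ofSubmodule' C.dualAnnihilator)
  have hann := Subspace.finrank_add_finrank_dualAnnihilator_eq C
  have hfull : Module.finrank (ZMod 2) (Fin 24 → ZMod 2) = 24 := by
    rw [Module.finrank_fintype_fun_eq_card]; simp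
  have hle : C ≤ A := by
    intro x hx
    simp only [A, Submodule.mem_comap, Submodule.mem_dualAnnihilator]
    intro w hw
    exact code_orth h hx hw
  have h2 := Submodule.finrank_mono hle
  omega

/-- The main count. -/
theorem count_main (h : LatData Λ)
    (hc : {a : Fin 24 → ℤ | a ∈ Λ ∧ ∑ i, a i ^ 2 = 32}.ncard = 196560) :
    Module.finrank (ZMod 2) (code Λ) = 12 ∧ ∃ a₀ ∈ Λ, OD a₀ := by
  classical
  have hf : {a : Fin 24 → ℤ | a ∈ Λ ∧ ∑ i, a i ^ 2 = 32}.Finite :=
    Set.finite_of_ncard_ne_zero (by rw [hc]; norm_num)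
  set S := hf.toFinset with hS
  have mem : ∀ a, a ∈ S ↔ a ∈ Λ ∧ ∑ i, a i ^ 2 = 32 := fun a => by simp [hS]
  have hcS : S.card = 196560 := by
    rw [← hc, Set.ncard_eq_toFinset_card _ hf]
  set S₂ := S.filter fun a => EV a ∧ hammingNorm (dig a) = 8 with hS₂
  set S₃ := S.filter fun a => OD a with hS₃
  have hsub : S ⊆ typeI ∪ S₂ ∪ S₃ := by
    intro a ha
    obtain ⟨hΛ, hs⟩ := (mem a).mp ha
    simp only [mem_union, hS₂, hS₃, mem_filter]
    rcases even_or_odd h hΛ with he | ho
    · rcases shape_even h hΛ he hs with h0 | h8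
      · exact Or.inl (Or.inl (mem_typeI_of_wt0 he hs h0))
      · exact Or.inl (Or.inr ⟨ha, he, h8⟩)
    · exact Or.inr ⟨ha, ho⟩
  have hc₂ : S₂.card ≤ 128 * 759 := by
    have h1 : S₂.card ≤ 128 * (S₂.image dig).card := by
      apply Finset.card_le_mul_card_image
      intro u hu
      obtain ⟨a, ha, rfl⟩ := mem_image.mp hu
      obtain ⟨ha1, _, ha8⟩ := mem_filter.mp ha
      apply card_fibre8 h _ (dig a) ha8
      intro b hb
      obtain ⟨hb1, hb2⟩ := mem_filter.mp hb
      obtain ⟨hb3, hb4, _⟩ := mem_filter.mp hb1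
      obtain ⟨hb5, hb6⟩ := (mem b).mp hb3
      exact ⟨hb5, hb4, hb6, hb2⟩
    have h2 : (S₂.image dig).card ≤ 759 := by
      apply oct_bound h
      intro u hu
      obtain ⟨a, ha, rfl⟩ := mem_image.mp hu
      obtain ⟨ha1, ha2, ha8⟩ := mem_filter.mp ha
      exact ⟨⟨a, ((mem a).mp ha1).1, ha2, rfl⟩, ha8⟩
    omega
  have hcard := card_le_card hsub
  have hu1 := card_union_le (typeI ∪ S₂) S₃
  have hu2 := card_union_le typeI S₂
  have hI := card_typeI
  have hc₃ : 97104 ≤ S₃.card := by omega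
  obtain ⟨a₀, ha₀⟩ : S₃.Nonempty := by
    rw [← card_pos]; omega
  obtain ⟨ha₀1, ha₀2⟩ := mem_filter.mp ha₀
  have ha₀Λ := ((mem a₀).mp ha₀1).1
  refine ⟨?_, a₀, ha₀Λ, ha₀2⟩
  -- size of the code
  set Cf : Finset (Fin 24 → ZMod 2) := univ.filter fun u => u ∈ code Λ with hCf
  have h1 : S₃.card ≤ 24 * (S₃.image dig).card := by
    apply Finset.card_le_mul_card_image
    intro u hu
    obtain ⟨a, ha, rfl⟩ := mem_image.mp hu
    apply card_fibreOdd _ (dig a)
    intro b hb
    obtain ⟨hb1, hb2⟩ := mem_filter.mp hb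
    obtain ⟨hb3, hb4⟩ := mem_filter.mp hb1
    exact ⟨hb4, ((mem b).mp hb3).2, hb2⟩
  have h2 : (S₃.image dig).card ≤ Cf.card := by
    apply card_le_card_of_injOn (fun w => w + dig a₀)
    · intro w hw
      obtain ⟨a, ha, rfl⟩ := mem_image.mp hw
      obtain ⟨ha1, ha2⟩ := mem_filter.mp ha
      have hmem : dig a + dig a₀ ∈ Cf := by
        rw [hCf, mem_filter]
        refine ⟨mem_univ _, ?_⟩
        rw [← dig_sub_odd ha2 ha₀2]
        exact ⟨a - a₀, Λ.sub_mem ((mem a).mp ha1).1 ha₀Λ, OD.sub_ev ha2 ha₀2, rfl⟩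
      exact hmem
    · intro w _ w' _ hww
      exact add_right_cancel hww
  have h3 : Nat.card (code Λ) = Cf.card := by
    rw [Nat.card_eq_fintype_card]
    exact Fintype.card_of_subtype _ (fun x => by simp [hCf])
  have h4 := Module.natCard_eq_pow_finrank (K := ZMod 2) (V := code Λ)
  have h5 : Nat.card (ZMod 2) = 2 := by simp
  rw [h5, h3] at h4
  have h6 := finrank_le h
  have h7 : 4046 ≤ Cf.card := by omega
  rw [h4] at h7
  generalize Module.finrank (ZMod 2) (code Λ) = f at h6 h7 ⊢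
  interval_cases f <;> first | rfl | (exfalso; revert h7; norm_num)

end Cfsg.Agent.Lib.LeechChar.Count
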