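/-
Characterisation of the rank-24 lattice: identification with the concrete lattice by a signed
permutation of coordinates.
-/
import Cfsg.Agent.Lib.LeechChar.Count
import Cfsg.Agent.Lib.Leech.Basic
import Cfsg.Agent.S0375

set_option autoImplicit false
set_option linter.unusedSectionVars false

namespace Cfsg.Agent.Lib.LeechChar.Main

open Finset Cfsg Cfsg.Agent.Lib.LeechChar.Code Cfsg.Agent.Lib.LeechChar.Count
open Cfsg.Agent.Lib.Leech.Basic

variable {Λ : AddSubgroup (Fin 24 → ℤ)}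

section normal

variable (h : LatData Λ) {a₀ : Fin 24 → ℤ} (ha₀ : a₀ ∈ Λ) (h1 : ∀ i, a₀ i % 4 = 1)

include h ha₀ h1

theorem sum8_even {a : Fin 24 → ℤ} (ha : a ∈ Λ) (hea : EV a) : (8 : ℤ) ∣ ∑ i, a i := by
  have h2 := h.dot8 a ha a₀ ha₀
  have h3 : (8 : ℤ) ∣ ∑ i, (a i * a₀ i - a i) := by
    refine Finset.dvd_sum fun i _ => ?_
    obtain ⟨c, hc⟩ := hea i
    obtain ⟨t, ht⟩ : ∃ t, a₀ i = 4 * t + 1 := ⟨a₀ i / 4, by have := h1 i; omega⟩
    rw [hc, ht]
    exact ⟨c * t, by ring⟩
  rw [Finset.sum_sub_distrib] at h3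
  omega

omit ha₀ in
theorem sum_a0 (ha₀ : a₀ ∈ Λ) : (∑ i, a₀ i) % 8 = 4 := by
  have h2 := h.norm16 a₀ ha₀
  have h3 : (16 : ℤ) ∣ ∑ i, (a₀ i ^ 2 - 2 * a₀ i + 1) := by
    refine Finset.dvd_sum fun i _ => ?_
    obtain ⟨t, ht⟩ : ∃ t, a₀ i = 4 * t + 1 := ⟨a₀ i / 4, by have := h1 i; omega⟩
    rw [ht]
    exact ⟨t ^ 2, by ring⟩
  have h4 : ∑ i, (a₀ i ^ 2 - 2 * a₀ i + 1) = ∑ i, a₀ i ^ 2 - 2 * ∑ i, a₀ i + 24 := by
    rw [Finset.sum_add_distrib, Finset.sum_sub_distrib, ← Finset.mul_sum]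
    simp
  rw [h4] at h3
  omega

theorem mem_of_even {a : Fin 24 → ℤ} (hea : EV a) (hs : (8 : ℤ) ∣ ∑ i, a i)
    (hd : dig a ∈ code Λ) : a ∈ Λ := by
  obtain ⟨b, hb, heb, hdb⟩ := hd
  have hsb := sum8_even h ha₀ h1 hb heb
  have hz : ∀ i, b i - a i = 4 * ((b i - a i) / 4) := by
    intro i
    have h2 := congrFun hdb i
    simp only [dig] at h2
    have h3 := (ZMod.intCast_eq_intCast_iff _ _ 2).mp h2
    have h4 : (b i / 2) % 2 = (a i / 2) % 2 := h3
    obtain ⟨c, hc⟩ := hea i
    obtain ⟨d, hd⟩ := heb i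
    omega
  refine mem_of_sub_four h hb (z := fun i => (b i - a i) / 4) hz ?_
  have h5 : ∑ i, (b i - a i) = 4 * ∑ i, (b i - a i) / 4 := by
    rw [Finset.mul_sum]
    exact Finset.sum_congr rfl fun i _ => hz i
  rw [Finset.sum_sub_distrib] at h5
  omega

theorem dig_sub_a0 {a : Fin 24 → ℤ} (hoa : OD a) : dig (a - a₀) = dig a := by
  funext i
  simp only [dig, Pi.sub_apply]
  apply (ZMod.intCast_eq_intCast_iff _ _ 2).mpr
  have h2 := hoa i
  have h3 := h1 i
  show (a i - a₀ i) / 2 % 2 = a i / 2 % 2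
  omega

theorem od_a0 : OD a₀ := fun i => by have := h1 i; omega

theorem digitWord_comp (e : Fin 24 ≃ GolayPt) (a : Fin 24 → ℤ) :
    (fun i => digitWord (fun p => a (e.symm p)) (e i)) = dig a := by
  funext i
  simp [digitWord, bit1, dig]

/-- The criterion: membership in the lattice equals membership in the concrete lattice. -/
theorem mem_iff (e : Fin 24 ≃ GolayPt)
    (he : ∀ w : GolayPt → ZMod 2, w ∈ golayCode ↔ (fun i => w (e i)) ∈ code Λ) (a : Fin 24 → ℤ) :
    a ∈ Λ ↔ (fun p => a (e.symm p)) ∈ leechSet := by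
  have hdw : ∀ a : Fin 24 → ℤ, digitWord (fun p => a (e.symm p)) ∈ golayCode ↔ dig a ∈ code Λ := by
    intro a
    rw [he, digitWord_comp h ha₀ h1]
  have hsum : ∀ a : Fin 24 → ℤ, ∑ p, a (e.symm p) = ∑ i, a i := fun a => Equiv.sum_comp e.symm a
  rw [mem_leechSet_iff]
  have hsa0 := sum_a0 h h1 ha₀
  have hoa0 := od_a0 h ha₀ h1
  constructor
  · intro ha
    rcases even_or_odd h ha with hea | hoa
    · refine ⟨0, fun p => ?_, ?_, ?_⟩
      · have := hea (e.symm p)
        show _ % _ = _ % _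
        omega
      · rw [hsum]
        have := sum8_even h ha₀ h1 ha hea
        show _ % _ = _ % _
        omega
      · rw [hdw]
        exact ⟨a, ha, hea, rfl⟩
    · refine ⟨1, fun p => ?_, ?_, ?_⟩
      · have := hoa (e.symm p)
        show _ % _ = _ % _
        omega
      · rw [hsum]
        have h2 := sum8_even h ha₀ h1 (Λ.sub_mem ha ha₀) (OD.sub_ev hoa hoa0)
        simp only [Pi.sub_apply, Finset.sum_sub_distrib] at h2
        show _ % _ = _ % _
        omega
      · rw [hdw, ← dig_sub_a0 h ha₀ h1 hoa]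
        exact ⟨a - a₀, Λ.sub_mem ha ha₀, OD.sub_ev hoa hoa0, rfl⟩
  · rintro ⟨m, hm, hs, hw⟩
    rw [hsum] at hs
    rw [hdw] at hw
    have hpar : ∀ i, a i ≡ m [ZMOD 2] := by
      intro i
      have := hm (e i)
      simpa using this
    rcases Int.emod_two_eq_zero_or_one m with hm0 | hm1
    · have hea : EV a := by
        intro i
        have : a i % 2 = m % 2 := hpar i
        omega
      refine mem_of_even h ha₀ h1 hea ?_ hw
      have : (∑ i, a i) % 8 = (4 * m) % 8 := hs
      omega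
    · have hoa : OD a := by
        intro i
        have : a i % 2 = m % 2 := hpar i
        omega
      have hmem : a - a₀ ∈ Λ := by
        refine mem_of_even h ha₀ h1 (OD.sub_ev hoa hoa0) ?_ ?_
        · simp only [Pi.sub_apply, Finset.sum_sub_distrib]
          have : (∑ i, a i) % 8 = (4 * m) % 8 := hs
          omega
        · rw [dig_sub_a0 h ha₀ h1 hoa]
          exact hw
      have := Λ.add_mem hmem ha₀
      simpa using this

end normal

/-! ### Sign changes -/

/-- Multiply coordinates by signs. -/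
def flip (ε : Fin 24 → ℤ) : (Fin 24 → ℤ) →+ (Fin 24 → ℤ) where
  toFun a := fun i => ε i * a i
  map_zero' := by funext i; simp
  map_add' a b := by funext i; simp [mul_add]

@[simp] theorem flip_apply (ε a) (i : Fin 24) : flip ε a i = ε i * a i := rfl

theorem sq_sign {ε : ℤ} (h : ε = 1 ∨ ε = -1) : ε * ε = 1 := by
  rcases h with rfl | rfl <;> norm_num

theorem flip_flip {ε : Fin 24 → ℤ} (hε : ∀ i, ε i = 1 ∨ ε i = -1) (a : Fin 24 → ℤ) :
    flip ε (flip ε a) = a := by
  funext i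
  simp only [flip_apply, ← mul_assoc, sq_sign (hε i), one_mul]

theorem flip_latData (h : LatData Λ) {ε : Fin 24 → ℤ} (hε : ∀ i, ε i = 1 ∨ ε i = -1) :
    LatData (Λ.comap (flip ε)) := by
  have hsq : ∀ a : Fin 24 → ℤ, ∑ i, (ε i * a i) ^ 2 = ∑ i, a i ^ 2 := by
    intro a
    refine Finset.sum_congr rfl fun i _ => ?_
    rw [mul_pow, pow_two (ε i), sq_sign (hε i), one_mul]
  refine ⟨?_, ?_, ?_, ?_, ?_⟩
  · intro a ha b hb
    have h2 := h.dot8 _ ha _ hb
    have h3 : ∑ i, flip ε a i * flip ε b i = ∑ i, a i * b i := by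
      refine Finset.sum_congr rfl fun i _ => ?_
      simp only [flip_apply]
      calc ε i * a i * (ε i * b i) = (ε i * ε i) * (a i * b i) := by ring
        _ = a i * b i := by rw [sq_sign (hε i), one_mul]
    rwa [h3] at h2
  · intro a ha
    have h2 := h.norm16 _ ha
    simp only [flip_apply, hsq] at h2
    exact h2
  · intro a ha
    have h2 := h.noroot _ ha
    simp only [flip_apply, hsq] at h2
    exact h2
  · intro i
    have h2 : flip ε (Pi.single i 8) = ε i • (Pi.single i 8 : Fin 24 → ℤ) := by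
      funext k
      by_cases hk : k = i
      · subst hk; simp
      · simp [hk]
    show flip ε (Pi.single i 8) ∈ Λ
    rw [h2]
    exact Λ.zsmul_mem (h.e8 i) _
  · intro i j hij
    show flip ε (Pi.single i 4 + Pi.single j 4) ∈ Λ
    have h2 : flip ε (Pi.single i 4 + Pi.single j 4) =
        ((Pi.single i 4 : Fin 24 → ℤ) + Pi.single j 4) + ((ε i - 1) / 2) • (Pi.single i 8 : Fin 24 → ℤ)
          + ((ε j - 1) / 2) • (Pi.single j 8 : Fin 24 → ℤ) := by
      funext k
      by_cases hk : k = i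
      · subst hk
        have := hε k
        simp only [flip_apply, Pi.add_apply, Pi.smul_apply, smul_eq_mul, Pi.single_eq_same,
          Pi.single_eq_of_ne hij, add_zero, mul_zero]
        rcases this with h3 | h3 <;> rw [h3] <;> norm_num
      · by_cases hk2 : k = j
        · subst hk2
          have := hε k
          simp only [flip_apply, Pi.add_apply, Pi.smul_apply, smul_eq_mul, Pi.single_eq_same,
            Pi.single_eq_of_ne hk, add_zero, mul_zero, zero_add]
          rcases this with h3 | h3 <;> rw [h3] <;> norm_num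
        · simp only [flip_apply, Pi.add_apply, Pi.smul_apply, smul_eq_mul, Pi.single_eq_of_ne hk,
            Pi.single_eq_of_ne hk2, add_zero, mul_zero]
    rw [h2]
    exact Λ.add_mem (Λ.add_mem (h.e44 i j hij) (Λ.zsmul_mem (h.e8 i) _)) (Λ.zsmul_mem (h.e8 j) _)

theorem dig_flip {ε : Fin 24 → ℤ} (hε : ∀ i, ε i = 1 ∨ ε i = -1) {a : Fin 24 → ℤ} (hea : EV a) :
    dig (flip ε a) = dig a := by
  funext i
  simp only [dig, flip_apply]
  rcases hε i with h1 | h1 <;> rw [h1]
  · rw [one_mul]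
  · obtain ⟨c, hc⟩ := hea i
    apply (ZMod.intCast_eq_intCast_iff _ _ 2).mpr
    show (-1 * a i) / 2 % 2 = a i / 2 % 2
    omega

theorem ev_flip {ε : Fin 24 → ℤ} {a : Fin 24 → ℤ} (hea : EV a) : EV (flip ε a) := fun i =>
  Dvd.dvd.mul_left (hea i) _

theorem code_flip {ε : Fin 24 → ℤ} (hε : ∀ i, ε i = 1 ∨ ε i = -1) :
    code (Λ.comap (flip ε)) = code Λ := by
  ext u
  constructor
  · rintro ⟨a, ha, hea, rfl⟩
    exact ⟨flip ε a, ha, ev_flip hea, dig_flip hε hea⟩
  · rintro ⟨a, ha, hea, rfl⟩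
    refine ⟨flip ε a, ?_, ev_flip hea, dig_flip hε hea⟩
    show flip ε (flip ε a) ∈ Λ
    rwa [flip_flip hε]

/-- The main result on lattices in frame coordinates. -/
theorem main (h : LatData Λ)
    (hc : {a : Fin 24 → ℤ | a ∈ Λ ∧ ∑ i, a i ^ 2 = 32}.ncard = 196560) :
    ∃ g : (Fin 24 → ℤ) →+ (GolayPt → ℤ), Function.Bijective g ∧
      (∀ a, sqNorm (g a) = ∑ i, a i ^ 2) ∧ ∀ a, a ∈ Λ ↔ g a ∈ leechLattice := by
  classical
  obtain ⟨hdim, a₀, ha₀, hoa₀⟩ := count_main h hc
  -- the signs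
  set ε : Fin 24 → ℤ := fun i => if a₀ i % 4 = 1 then 1 else -1 with hε'
  have hε : ∀ i, ε i = 1 ∨ ε i = -1 := by
    intro i
    simp only [hε']
    split_ifs <;> simp
  have hflip := flip_latData h hε
  have hcode := code_flip (Λ := Λ) hε
  -- the coordinates
  obtain ⟨e, he⟩ := Cfsg.Agent.S0375.result (code Λ) hdim (fun v hv w hw => code_orth h hv hw)
    (fun w hw => code_wt h hw) (fun w hw => code_no4 h hw)
  have ha₀' : flip ε a₀ ∈ Λ.comap (flip ε) := by
    show flip ε (flip ε a₀) ∈ Λ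
    rwa [flip_flip hε]
  have h1 : ∀ i, flip ε a₀ i % 4 = 1 := by
    intro i
    have := hoa₀ i
    simp only [flip_apply, hε']
    split_ifs with h2
    · omega
    · omega
  have key := mem_iff hflip ha₀' h1 e (by rw [hcode]; exact he)
  -- the map
  let g : (Fin 24 → ℤ) →+ (GolayPt → ℤ) :=
    { toFun := fun a p => flip ε a (e.symm p)
      map_zero' := by funext p; simp
      map_add' := fun a b => by funext p; simp [mul_add] }
  have hg : ∀ a p, g a p = ε (e.symm p) * a (e.symm p) := fun a p => rfl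
  refine ⟨g, ⟨?_, ?_⟩, ?_, ?_⟩
  · intro a b hab
    funext i
    have h2 := congrFun hab (e i)
    simp only [hg, Equiv.symm_apply_apply] at h2
    rcases hε i with h3 | h3 <;> rw [h3] at h2 <;> linarith
  · intro y
    refine ⟨fun i => ε i * y (e i), ?_⟩
    funext p
    simp only [hg, Equiv.apply_symm_apply, ← mul_assoc, sq_sign (hε _), one_mul]
  · intro a
    unfold sqNorm
    simp only [hg]
    rw [Equiv.sum_comp e.symm (fun i => (ε i * a i) ^ 2)]
    refine Finset.sum_congr rfl fun i _ => ?_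
    rw [mul_pow, pow_two (ε i), sq_sign (hε i), one_mul]
  · intro a
    rw [mem_leechLattice_iff]
    have h2 := key (flip ε a)
    have h3 : flip ε a ∈ Λ.comap (flip ε) ↔ a ∈ Λ := by
      show flip ε (flip ε a) ∈ Λ ↔ _
      rw [flip_flip hε]
    rw [← h3, h2]
    rfl

end Cfsg.Agent.Lib.LeechChar.Main
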