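/-
Characterisation of the rank-24 lattice: frame coordinates of an abstract lattice.
-/
import Cfsg.Agent.Lib.LeechChar.Main
import Cfsg.Agent.Lib.Lattice.EvenRootless
import Cfsg.Agent.S1588

set_option autoImplicit false

namespace Cfsg.Agent.Lib.LeechChar.Frame

open Matrix Finset Cfsg Cfsg.Agent.Lib.Lattice.EvenRootless Cfsg.Agent.Lib.LeechChar.Code

variable {B : Matrix (Fin 24) (Fin 24) ℤ}

/-- A frame of 24 pairwise orthogonal vectors of norm 8, congruent modulo 2. -/
theorem exists_frame (h : Rootless B)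
    (h4 : {x : Fin 24 → ℤ | x ⬝ᵥ (B *ᵥ x) = 4}.ncard = 196560)
    (h6 : {x : Fin 24 → ℤ | x ⬝ᵥ (B *ᵥ x) = 6}.ncard = 16773120)
    (h8 : {x : Fin 24 → ℤ | x ⬝ᵥ (B *ᵥ x) = 8}.ncard = 398034000) :
    ∃ v : Fin 24 → (Fin 24 → ℤ), (∀ i j, i ≠ j → P B (v i) (v j) = 0) ∧ (∀ i, P B (v i) (v i) = 8) ∧
      ∀ i j k, (2 : ℤ) ∣ (v i - v j) k := by
  classical
  obtain ⟨x₀, hx₀⟩ : {x : Fin 24 → ℤ | x ⬝ᵥ (B *ᵥ x) = 8}.Nonempty :=
    Set.nonempty_of_ncard_ne_zero (by rw [h8]; norm_num)
  have hF := Cfsg.Agent.S1588.result B h.symm h.pos h.even h.noroot h4 h6 h8 x₀ hx₀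
  have hfin : {y : Fin 24 → ℤ | y ⬝ᵥ (B *ᵥ y) = 8 ∧ ∀ i, (2 : ℤ) ∣ (x₀ - y) i}.Finite :=
    Set.finite_of_ncard_ne_zero (by rw [hF]; norm_num)
  set Fs := hfin.toFinset with hFs
  have mem : ∀ y, y ∈ Fs ↔ Q B y = 8 ∧ ∀ i, (2 : ℤ) ∣ (x₀ - y) i := fun y => by
    simp [hFs, Q]
  have hcard : Fs.card = 48 := by
    rw [← hF, Set.ncard_eq_toFinset_card _ hfin]
  have hneg : ∀ y ∈ Fs, -y ∈ Fs := by
    intro y hy
    obtain ⟨h1, h2⟩ := (mem y).mp hy
    refine (mem _).mpr ⟨by rw [Q_neg]; exact h1, fun i => ?_⟩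
    have h3 := h2 i
    have h4 : (2 : ℤ) ∣ 2 * y i := ⟨y i, rfl⟩
    have h5 : (x₀ - -y) i = (x₀ - y) i + 2 * y i := by
      simp only [Pi.sub_apply, Pi.neg_apply]; ring
    rw [h5]
    exact dvd_add h3 h4
  have hne : ∀ y ∈ Fs, -y ≠ y := by
    intro y hy hyy
    have h1 : y = 0 := by
      funext i
      have := congrFun hyy i
      simp only [Pi.neg_apply] at this
      simp only [Pi.zero_apply]
      omega
    have h2 := ((mem y).mp hy).1
    rw [h1, Q_zero] at h2
    omega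
  set R := Fs.filter fun y => toLex (-y) < toLex y with hR
  have hunion : Fs = R ∪ R.image (fun y => -y) := by
    ext y
    simp only [hR, mem_union, mem_filter, mem_image]
    constructor
    · intro hy
      rcases lt_or_gt_of_ne (show toLex (-y) ≠ toLex y from fun hh => hne y hy (toLex.injective hh))
        with h1 | h1
      · exact Or.inl ⟨hy, h1⟩
      · exact Or.inr ⟨-y, ⟨hneg y hy, by rw [neg_neg]; exact h1⟩, by simp⟩
    · rintro (⟨hy, _⟩ | ⟨z, ⟨hz, _⟩, rfl⟩)
      · exact hy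
      · exact hneg z hz
  have hdisj : Disjoint R (R.image (fun y => -y)) := by
    rw [Finset.disjoint_left]
    intro y hy hy'
    obtain ⟨z, hz, rfl⟩ := mem_image.mp hy'
    have h1 := (mem_filter.mp hz).2
    have h2 := (mem_filter.mp hy).2
    simp only [neg_neg] at h2
    exact lt_asymm h1 h2
  have hcR : R.card = 24 := by
    have h1 : (R.image (fun y => -y)).card = R.card :=
      card_image_of_injective _ neg_injective
    have h2 := card_union_of_disjoint hdisj
    rw [← hunion, hcard, h1] at h2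
    omega
  let E := R.equivFinOfCardEq hcR
  let v : Fin 24 → (Fin 24 → ℤ) := fun i => (E.symm i : Fin 24 → ℤ)
  have hvR : ∀ i, v i ∈ R := fun i => (E.symm i).2
  have hvF : ∀ i, v i ∈ Fs := fun i => (mem_filter.mp (hvR i)).1
  have hvQ : ∀ i, Q B (v i) = 8 := fun i => ((mem _).mp (hvF i)).1
  have hcong : ∀ i j k, (2 : ℤ) ∣ (v i - v j) k := by
    intro i j k
    have h1 := ((mem _).mp (hvF i)).2 k
    have h2 := ((mem _).mp (hvF j)).2 k
    have h3 : (v i - v j) k = (x₀ - v j) k - (x₀ - v i) k := by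
      simp only [Pi.sub_apply]; ring
    rw [h3]
    exact dvd_sub h2 h1
  refine ⟨v, ?_, fun i => hvQ i, hcong⟩
  intro i j hij
  rcases h.norm8 (hvQ i) (hvQ j) (hcong i j) with h1 | h1 | h1
  · exfalso
    apply hij
    have : E.symm j = E.symm i := Subtype.ext h1
    exact (E.symm.injective this).symm
  · exfalso
    have h2 := (mem_filter.mp (hvR i)).2
    have h3 := (mem_filter.mp (hvR j)).2
    rw [h1] at h3
    simp only [neg_neg] at h3
    exact lt_asymm h2 h3
  · exact h1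

/-- The coordinates. -/
theorem exists_coords (h : Rootless B)
    (h4 : {x : Fin 24 → ℤ | x ⬝ᵥ (B *ᵥ x) = 4}.ncard = 196560)
    (h6 : {x : Fin 24 → ℤ | x ⬝ᵥ (B *ᵥ x) = 6}.ncard = 16773120)
    (h8 : {x : Fin 24 → ℤ | x ⬝ᵥ (B *ᵥ x) = 8}.ncard = 398034000) :
    ∃ (f : (Fin 24 → ℤ) →+ (Fin 24 → ℤ)), LatData f.range ∧
      {a : Fin 24 → ℤ | a ∈ f.range ∧ ∑ i, a i ^ 2 = 32}.ncard = 196560 ∧
      (∀ x, ∑ i, f x i ^ 2 = 8 * Q B x) ∧ Function.Injective f := by
  classical
  obtain ⟨v, horth, hnorm, hcong⟩ := exists_frame h h4 h6 h8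
  let V : Matrix (Fin 24) (Fin 24) ℤ := Matrix.of v
  let N : Matrix (Fin 24) (Fin 24) ℤ := B * Vᵀ
  have hVN : V * N = (8 : ℤ) • (1 : Matrix (Fin 24) (Fin 24) ℤ) := by
    ext i j
    have h1 : (V * N) i j = P B (v i) (v j) := rfl
    rw [h1]
    by_cases hij : i = j
    · subst hij
      simp [hnorm]
    · simp [horth i j hij, hij]
  have hNV : N * V = (8 : ℤ) • (1 : Matrix (Fin 24) (Fin 24) ℤ) := by
    have hdet : N.det ≠ 0 := by
      intro h0
      have h1 := congrArg Matrix.det hVN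
      rw [Matrix.det_mul, h0, mul_zero, Matrix.det_smul, Matrix.det_one] at h1
      norm_num at h1
    have h2 : (N * V - (8 : ℤ) • 1) * N = 0 := by
      rw [sub_mul, Matrix.mul_assoc, hVN, Matrix.smul_mul, Matrix.mul_smul, Matrix.one_mul,
        Matrix.mul_one, sub_self]
    have h3 : (N * V - (8 : ℤ) • 1) * (N * N.adjugate) = 0 := by
      rw [← Matrix.mul_assoc, h2, Matrix.zero_mul]
    rw [Matrix.mul_adjugate, Matrix.mul_smul, Matrix.mul_one] at h3
    have h4 := (smul_eq_zero.mp h3).resolve_left hdet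
    exact sub_eq_zero.mp h4
  let A : Matrix (Fin 24) (Fin 24) ℤ := V * B
  have hAT : Aᵀ = N := by
    simp only [A, N, Matrix.transpose_mul]
    rw [h.symm]
  have hATA : Aᵀ * A = (8 : ℤ) • B := by
    rw [hAT]
    simp only [A]
    rw [← Matrix.mul_assoc, hNV, Matrix.smul_mul, Matrix.one_mul]
  let f : (Fin 24 → ℤ) →+ (Fin 24 → ℤ) :=
    { toFun := fun x => A *ᵥ x
      map_zero' := Matrix.mulVec_zero _
      map_add' := Matrix.mulVec_add _ }
  have hfv : ∀ x i, f x i = P B (v i) x := fun x i => by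
    show ((V * B) *ᵥ x) i = _
    rw [← Matrix.mulVec_mulVec]
    rfl
  have hdot : ∀ x y, ∑ i, f x i * f y i = 8 * P B x y := by
    intro x y
    show (A *ᵥ x) ⬝ᵥ (A *ᵥ y) = _
    rw [← Matrix.vecMul_transpose A x, ← Matrix.dotProduct_mulVec, Matrix.mulVec_mulVec, hATA,
      Matrix.smul_mulVec, dotProduct_smul, smul_eq_mul]
    rfl
  have hsq : ∀ x, ∑ i, f x i ^ 2 = 8 * Q B x := by
    intro x
    rw [Q_eq_P, ← hdot]
    exact Finset.sum_congr rfl fun i _ => by ring
  have hfe : ∀ i k, f (v i) k = (Pi.single i 8 : Fin 24 → ℤ) k := by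
    intro i k
    rw [hfv]
    by_cases hk : k = i
    · subst hk; rw [hnorm, Pi.single_eq_same]
    · rw [horth k i hk, Pi.single_eq_of_ne hk]
  have hinj : Function.Injective f := by
    rw [injective_iff_map_eq_zero]
    intro x hx
    have h1 := hsq x
    rw [hx] at h1
    simp only [Pi.zero_apply, ne_eq, OfNat.ofNat_ne_zero, not_false_eq_true, zero_pow,
      Finset.sum_const_zero] at h1
    exact h.Q_eq_zero (by omega)
  have hL : LatData f.range := by
    refine ⟨?_, ?_, ?_, ?_, ?_⟩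
    · rintro _ ⟨x, rfl⟩ _ ⟨y, rfl⟩
      exact ⟨P B x y, hdot x y⟩
    · rintro _ ⟨x, rfl⟩
      rw [hsq]
      obtain ⟨c, hc⟩ := h.even x
      exact ⟨c, by
        have : Q B x = 2 * c := hc
        rw [this]; ring⟩
    · rintro _ ⟨x, rfl⟩
      rw [hsq]
      have := h.noroot x
      change Q B x ≠ 2 at this
      omega
    · intro i
      exact ⟨v i, by funext k; exact hfe i k⟩
    · intro i j hij
      refine ⟨fun l => (v i l + v j l) / 2, ?_⟩
      have h2 : ∀ l, 2 * ((v i l + v j l) / 2) = v i l + v j l := by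
        intro l
        have := hcong i j l
        simp only [Pi.sub_apply] at this
        omega
      have h3 : (2 : ℤ) • (fun l => (v i l + v j l) / 2) = v i + v j := by
        funext l
        simp only [Pi.smul_apply, smul_eq_mul, Pi.add_apply]
        exact h2 l
      funext k
      have h4 := congrFun (congrArg f h3) k
      rw [map_zsmul, map_add] at h4
      simp only [Pi.smul_apply, smul_eq_mul, Pi.add_apply, hfe] at h4
      simp only [Pi.add_apply]
      by_cases hki : k = i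
      · subst hki
        rw [Pi.single_eq_same, Pi.single_eq_of_ne hij] at h4 ⊢
        omega
      · by_cases hkj : k = j
        · subst hkj
          rw [Pi.single_eq_same, Pi.single_eq_of_ne hki] at h4 ⊢
          omega
        · rw [Pi.single_eq_of_ne hki, Pi.single_eq_of_ne hkj] at h4 ⊢
          omega
  have hcount : {a : Fin 24 → ℤ | a ∈ f.range ∧ ∑ i, a i ^ 2 = 32}.ncard = 196560 := by
    have h1 : {a : Fin 24 → ℤ | a ∈ f.range ∧ ∑ i, a i ^ 2 = 32} =
        f '' {x : Fin 24 → ℤ | x ⬝ᵥ (B *ᵥ x) = 4} := by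
      ext a
      constructor
      · rintro ⟨⟨x, rfl⟩, hs⟩
        rw [hsq] at hs
        exact ⟨x, by
          show Q B x = 4
          omega, rfl⟩
      · rintro ⟨x, hx, rfl⟩
        refine ⟨⟨x, rfl⟩, ?_⟩
        rw [hsq]
        have : Q B x = 4 := hx
        omega
    rw [h1, Set.ncard_image_of_injective _ hinj, h4]
  exact ⟨f, hL, hcount, hsq, hinj⟩

end Cfsg.Agent.Lib.LeechChar.Frame
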